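import Cfsg.Agent.Lib.Helper81.CY3.DEG

set_option autoImplicit false
set_option linter.unusedSectionVars false
open Cfsg
open scoped ComplexConjugate
open Cfsg.Agent.Lib.Helper20 Cfsg.Agent.Lib.Helper81

namespace Cfsg.Agent.Lib.Helper81.CY3

variable {G : Type*} [Group G] [Fintype G] {p : ℕ} [Fact p.Prime] {M : Ideal AlgInt}

open Classical in
/-- the two-point combination -/
theorem cg_two {R : Type*} [CommRing R] (χ χ' : IrrCharacter G) (u u' : ℤ)
    (f : IrrCharacter G → R) :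
    ∑ᶠ ψ : IrrCharacter G,
      ((((if ψ = χ then u else 0) - (if ψ = χ' then u' else 0) : ℤ)) : R) * f ψ
      = (u : R) * f χ - (u' : R) * f χ' := by
  have : Finite (Cfsg.IrrCharacter G) := finite_irrCharacter
  have : Fintype (Cfsg.IrrCharacter G) := Fintype.ofFinite _
  rw [finsum_eq_sum_of_fintype]
  have h : ∀ ψ : IrrCharacter G,
      ((((if ψ = χ then u else 0) - (if ψ = χ' then u' else 0) : ℤ)) : R) * f ψ
      = (if ψ = χ then (u : R) * f ψ else 0) - (if ψ = χ' then (u' : R) * f ψ else 0) := by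
    intro ψ
    split_ifs <;> push_cast <;> ring
  simp_rw [h]
  rw [Finset.sum_sub_distrib, Finset.sum_ite_eq' Finset.univ χ, Finset.sum_ite_eq' Finset.univ χ',
    if_pos (Finset.mem_univ _), if_pos (Finset.mem_univ _)]

/-- [CG] the congruences modulo `|G|_p`. -/
theorem cg {B X Y : Set (IrrCharacter G)} {e t : ℕ} {δ : IrrCharacter G → ℤ} {δ₀ : ℤ}
    (hs : Shape p B X Y e t δ δ₀) :
    (∀ χ ∈ X, ∀ χ' ∈ X, δ χ * (charDegree (χ : G → ℂ) : ℤ) ≡ δ χ' * (charDegree (χ' : G → ℂ) : ℤ)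
      [ZMOD (p : ℤ) ^ (Nat.card G).factorization p]) ∧
    (∀ ψ ∈ Y, ∀ χ ∈ X, (charDegree (ψ : G → ℂ) : ℤ) ≡
      -((e : ℤ) * δ₀ * δ χ * (charDegree (χ : G → ℂ) : ℤ))
      [ZMOD (p : ℤ) ^ (Nat.card G).factorization p]) := by
  classical
  have : Finite (Cfsg.IrrCharacter G) := finite_irrCharacter
  have : Fintype (Cfsg.IrrCharacter G) := Fintype.ofFinite _
  have hp : p.Prime := Fact.out
  have h1 : ∀ χ ∈ X, ∀ χ' ∈ X, δ χ * (charDegree (χ : G → ℂ) : ℤ) ≡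
      δ χ' * (charDegree (χ' : G → ℂ) : ℤ) [ZMOD (p : ℤ) ^ (Nat.card G).factorization p] := by
    intro χ hχ χ' hχ'
    have hd := deg (p := p) (G := G)
      (fun ψ => (if ψ = χ' then δ χ' else 0) - (if ψ = χ then δ χ else 0)) (by
        intro g hg
        rw [cg_two χ' χ (δ χ') (δ χ) (fun ψ => (ψ : G → ℂ) g), hs.sing χ' hχ' χ hχ g hg, sub_self])
    have h2 := cg_two χ' χ (δ χ') (δ χ) (fun ψ => (charDegree (ψ : G → ℂ) : ℤ))
    simp only [Int.cast_id] at h2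
    rw [h2] at hd
    exact (Int.modEq_iff_dvd).2 hd
  refine ⟨h1, ?_⟩
  intro ψ hψ χ hχ
  have hreg1 : ¬ p ∣ orderOf (1 : G) := by
    rw [orderOf_one, Nat.dvd_one]; exact hp.one_lt.ne'
  have h2 := hs.rel ψ hψ 1 hreg1
  rw [finsum_mem_irr] at h2
  have h3 : δ₀ * (charDegree (ψ : G → ℂ) : ℤ)
      + ∑ χ' : IrrCharacter G, (if χ' ∈ X then δ χ' * (charDegree (χ' : G → ℂ) : ℤ) else 0) = 0 := by
    have : ((δ₀ * (charDegree (ψ : G → ℂ) : ℤ)
      + ∑ χ' : IrrCharacter G, (if χ' ∈ X then δ χ' * (charDegree (χ' : G → ℂ) : ℤ) else 0) : ℤ) : ℂ)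
        = 0 := by
      rw [← h2]
      push_cast
      rw [irr_one_eq]
      congr 1
      apply Finset.sum_congr rfl; intro χ' _
      split_ifs
      · rw [irr_one_eq]
      · rfl
    exact_mod_cast this
  have hcard : (Finset.univ.filter (fun χ' : IrrCharacter G => χ' ∈ X)).card = e := by
    rw [← hs.cardX, Nat.card_eq_fintype_card, Fintype.card_subtype]
  have h4 : ∑ χ' : IrrCharacter G, (if χ' ∈ X then δ χ' * (charDegree (χ' : G → ℂ) : ℤ) else 0)
      ≡ (e : ℤ) * (δ χ * (charDegree (χ : G → ℂ) : ℤ))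
      [ZMOD (p : ℤ) ^ (Nat.card G).factorization p] := by
    rw [← Finset.sum_filter]
    have h5 : (e : ℤ) * (δ χ * (charDegree (χ : G → ℂ) : ℤ))
        = ∑ _χ' ∈ Finset.univ.filter (fun χ' : IrrCharacter G => χ' ∈ X),
          δ χ * (charDegree (χ : G → ℂ) : ℤ) := by
      rw [Finset.sum_const, hcard, nsmul_eq_mul]
    rw [h5, Int.modEq_iff_dvd, ← Finset.sum_sub_distrib]
    apply Finset.dvd_sum
    intro χ' hχ'
    exact (Int.modEq_iff_dvd).1 (h1 χ' (Finset.mem_filter.1 hχ').2 χ hχ)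
  have hδ : δ₀ * δ₀ = 1 := by rcases hs.sign0 with h | h <;> rw [h] <;> norm_num
  have h6 : (charDegree (ψ : G → ℂ) : ℤ)
      = -(δ₀ * ∑ χ' : IrrCharacter G,
        (if χ' ∈ X then δ χ' * (charDegree (χ' : G → ℂ) : ℤ) else 0)) := by
    have : ∑ χ' : IrrCharacter G, (if χ' ∈ X then δ χ' * (charDegree (χ' : G → ℂ) : ℤ) else 0)
        = -(δ₀ * (charDegree (ψ : G → ℂ) : ℤ)) := by linarith
    rw [this]
    have : -(δ₀ * -(δ₀ * (charDegree (ψ : G → ℂ) : ℤ)))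
        = (δ₀ * δ₀) * (charDegree (ψ : G → ℂ) : ℤ) := by ring
    rw [this, hδ, one_mul]
  rw [h6]
  have h7 := (h4.mul_left δ₀).neg
  have h8 : -(δ₀ * ((e : ℤ) * (δ χ * (charDegree (χ : G → ℂ) : ℤ))))
      = -((e : ℤ) * δ₀ * δ χ * (charDegree (χ : G → ℂ) : ℤ)) := by ring
  rw [h8] at h7
  exact h7

end Cfsg.Agent.Lib.Helper81.CY3
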