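import Mathlib

set_option autoImplicit false
set_option linter.unusedSectionVars false

namespace Cfsg.Agent.Lib.Helper81.CY3

theorem latw_sq_one {a : ℤ} (h : a ^ 2 = 1) : a = 1 ∨ a = -1 := by
  have h1 : (a - 1) * (a + 1) = 0 := by ring_nf; rw [h]; ring
  rcases mul_eq_zero.1 h1 with h2 | h2
  · left; omega
  · right; omega

/-- [LATW] -/
theorem latw {t : ℕ} (v : Fin t → ℤ) (hv : v ≠ 0) :
    (t : ℤ) ≤ (t + 1) * ∑ j, v j ^ 2 - (∑ j, v j) ^ 2 ∧
    ((t + 1) * ∑ j, v j ^ 2 - (∑ j, v j) ^ 2 = (t : ℤ) →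
      (∃ (j₀ : Fin t) (ε : ℤ), (ε = 1 ∨ ε = -1) ∧ ∀ j, v j = if j = j₀ then ε else 0) ∨
      (∃ ε : ℤ, (ε = 1 ∨ ε = -1) ∧ ∀ j, v j = ε)) := by
  classical
  set S : Finset (Fin t) := Finset.univ.filter (fun j => v j ≠ 0) with hS
  have hmem : ∀ j, j ∈ S ↔ v j ≠ 0 := by intro j; simp [hS]
  have hQ : ∑ j, v j ^ 2 = ∑ j ∈ S, v j ^ 2 := by
    rw [hS, Finset.sum_filter]
    apply Finset.sum_congr rfl
    intro j _
    by_cases h : v j = 0 <;> simp [h]
  have hL : ∑ j, v j = ∑ j ∈ S, v j := by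
    rw [hS, Finset.sum_filter]
    apply Finset.sum_congr rfl
    intro j _
    by_cases h : v j = 0 <;> simp [h]
  have hCS : (∑ j ∈ S, v j) ^ 2 ≤ (S.card : ℤ) * ∑ j ∈ S, v j ^ 2 := sq_sum_le_card_mul_sum_sq
  have hterm : ∀ j ∈ S, (1 : ℤ) ≤ v j ^ 2 := by
    intro j hj
    have h0 : v j ≠ 0 := (hmem j).1 hj
    have : 0 < v j ^ 2 := by positivity
    omega
  have hge : (S.card : ℤ) ≤ ∑ j ∈ S, v j ^ 2 := by
    have : ∑ j ∈ S, (1 : ℤ) ≤ ∑ j ∈ S, v j ^ 2 := Finset.sum_le_sum hterm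
    simpa using this
  have hs1 : 1 ≤ S.card := by
    apply Finset.card_pos.2
    by_contra hne
    apply hv
    funext j
    by_contra hj
    exact hne ⟨j, (hmem j).2 hj⟩
  have hst : S.card ≤ t := by
    have := Finset.card_le_univ S
    simpa using this
  rw [hQ, hL]
  set Q : ℤ := ∑ j ∈ S, v j ^ 2 with hQdef
  set L : ℤ := ∑ j ∈ S, v j with hLdef
  have hs1' : (1 : ℤ) ≤ (S.card : ℤ) := by exact_mod_cast hs1
  have hst' : (S.card : ℤ) ≤ (t : ℤ) := by exact_mod_cast hst
  set s : ℤ := (S.card : ℤ) with hsdef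
  have hA : 0 ≤ ((t : ℤ) + 1 - s) * (Q - s) := mul_nonneg (by linarith) (by linarith)
  have hB : 0 ≤ (s - 1) * ((t : ℤ) - s) := mul_nonneg (by linarith) (by linarith)
  have hC : 0 ≤ s * Q - L ^ 2 := by linarith
  have hid : ((t : ℤ) + 1) * Q - L ^ 2 - t
      = ((t : ℤ) + 1 - s) * (Q - s) + (s - 1) * ((t : ℤ) - s) + (s * Q - L ^ 2) := by ring
  refine ⟨by linarith, ?_⟩
  intro heq
  have hA0 : ((t : ℤ) + 1 - s) * (Q - s) = 0 := by linarith
  have hB0 : (s - 1) * ((t : ℤ) - s) = 0 := by linarith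
  have hC0 : s * Q - L ^ 2 = 0 := by linarith
  have hQs : Q = s := by
    rcases mul_eq_zero.1 hA0 with h | h
    · linarith
    · linarith
  have hone : ∀ j ∈ S, v j ^ 2 = 1 := by
    have hsum : ∑ j ∈ S, (v j ^ 2 - 1) = 0 := by
      rw [Finset.sum_sub_distrib]
      simp only [Finset.sum_const, nsmul_eq_mul, mul_one]
      linarith
    have := (Finset.sum_eq_zero_iff_of_nonneg (fun j hj => by linarith [hterm j hj])).1 hsum
    intro j hj
    linarith [this j hj]
  rcases mul_eq_zero.1 hB0 with h | h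
  · -- `s = 1`
    left
    have hc1 : S.card = 1 := by
      have : (S.card : ℤ) = 1 := by linarith
      exact_mod_cast this
    obtain ⟨j₀, hj₀⟩ := Finset.card_eq_one.1 hc1
    have hj₀S : j₀ ∈ S := by rw [hj₀]; simp
    refine ⟨j₀, v j₀, latw_sq_one (hone j₀ hj₀S), ?_⟩
    intro j
    by_cases hj : j = j₀
    · rw [if_pos hj, hj]
    · rw [if_neg hj]
      by_contra h0
      have : j ∈ S := (hmem j).2 h0
      rw [hj₀, Finset.mem_singleton] at this
      exact hj this
  · -- `s = t`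
    right
    have hct : S.card = t := by
      have : (S.card : ℤ) = t := by linarith
      exact_mod_cast this
    have huniv : S = Finset.univ := by
      apply Finset.eq_univ_of_card
      rw [hct, Fintype.card_fin]
    have hall : ∀ j, v j ^ 2 = 1 := fun j => hone j (by rw [huniv]; simp)
    have hL2 : (L - t) * (L + t) = 0 := by
      have : L ^ 2 = (t : ℤ) ^ 2 := by
        have h1 : s = t := by linarith
        rw [hQs, h1] at hC0
        linarith
      ring_nf
      linarith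
    rcases mul_eq_zero.1 hL2 with h1 | h1
    · refine ⟨1, Or.inl rfl, ?_⟩
      have hsum : ∑ j ∈ S, (1 - v j) = 0 := by
        rw [Finset.sum_sub_distrib]
        simp only [Finset.sum_const, nsmul_eq_mul, mul_one]
        linarith
      have hnn : ∀ j ∈ S, 0 ≤ 1 - v j := by
        intro j _
        rcases latw_sq_one (hall j) with h | h <;> rw [h] <;> norm_num
      have := (Finset.sum_eq_zero_iff_of_nonneg hnn).1 hsum
      intro j
      linarith [this j (by rw [huniv]; simp)]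
    · refine ⟨-1, Or.inr rfl, ?_⟩
      have hsum : ∑ j ∈ S, (1 + v j) = 0 := by
        rw [Finset.sum_add_distrib]
        simp only [Finset.sum_const, nsmul_eq_mul, mul_one]
        linarith
      have hnn : ∀ j ∈ S, 0 ≤ 1 + v j := by
        intro j _
        rcases latw_sq_one (hall j) with h | h <;> rw [h] <;> norm_num
      have := (Finset.sum_eq_zero_iff_of_nonneg hnn).1 hsum
      intro j
      linarith [this j (by rw [huniv]; simp)]

end Cfsg.Agent.Lib.Helper81.CY3
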