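import Mathlib
import Cfsg.Agent.Lib.Helper81.CY3.LATW

set_option autoImplicit false
set_option linter.unusedSectionVars false

namespace Cfsg.Agent.Lib.Helper81.CY3

/-- the total weight of the columns -/
theorem latu_sum {I : Type*} [DecidableEq I] (s : Finset I) (e t : ℕ)
    (x : Fin t → I → ℤ)
    (hG : ∀ i j, ∑ χ ∈ s, x i χ * x j χ = (e : ℤ) + if i = j then 1 else 0) :
    ∑ χ ∈ s, (((t : ℤ) + 1) * ∑ j, x j χ ^ 2 - (∑ j, x j χ) ^ 2) = (t : ℤ) * ((e : ℤ) + t) := by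
  have h1 : ∑ χ ∈ s, ∑ j, x j χ ^ 2 = (t : ℤ) * ((e : ℤ) + 1) := by
    rw [Finset.sum_comm]
    have : ∀ j, ∑ χ ∈ s, x j χ ^ 2 = (e : ℤ) + 1 := by
      intro j
      have := hG j j
      rw [if_pos rfl] at this
      rw [← this]
      apply Finset.sum_congr rfl
      intro χ _
      ring
    simp only [this, Finset.sum_const, Finset.card_univ, Fintype.card_fin, nsmul_eq_mul]
  have h2 : ∑ χ ∈ s, (∑ j, x j χ) ^ 2 = (t : ℤ) * ((t : ℤ) * e + 1) := by
    have e1 : ∀ χ, (∑ j, x j χ) ^ 2 = ∑ i, ∑ j, x i χ * x j χ := by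
      intro χ
      rw [sq, Finset.sum_mul_sum]
    simp only [e1]
    rw [Finset.sum_comm]
    have e2 : ∀ i : Fin t, ∑ χ ∈ s, ∑ j, x i χ * x j χ = (t : ℤ) * e + 1 := by
      intro i
      rw [Finset.sum_comm]
      simp only [hG, Finset.sum_add_distrib, Finset.sum_const, Finset.card_univ, Fintype.card_fin,
        nsmul_eq_mul, Finset.sum_ite_eq, Finset.mem_univ, if_true]
    simp only [e2, Finset.sum_const, Finset.card_univ, Fintype.card_fin, nsmul_eq_mul]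
  rw [Finset.sum_sub_distrib, ← Finset.mul_sum, h1, h2]
  ring

/-- [LATU] -/
theorem latu {I : Type*} [DecidableEq I] (s : Finset I) (e t : ℕ) (ht : 1 ≤ t)
    (x : Fin t → I → ℤ)
    (hG : ∀ i j, ∑ χ ∈ s, x i χ * x j χ = (e : ℤ) + if i = j then 1 else 0)
    (hne : ∀ χ ∈ s, ∃ j, x j χ ≠ 0) : s.card ≤ e + t := by
  have hsum := latu_sum s e t x hG
  have hle : ∑ χ ∈ s, (t : ℤ) ≤
      ∑ χ ∈ s, (((t : ℤ) + 1) * ∑ j, x j χ ^ 2 - (∑ j, x j χ) ^ 2) := by
    apply Finset.sum_le_sum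
    intro χ hχ
    obtain ⟨j, hj⟩ := hne χ hχ
    exact (latw (fun j => x j χ) (fun h => hj (congrFun h j))).1
  rw [hsum, Finset.sum_const, nsmul_eq_mul] at hle
  have ht' : (0 : ℤ) < t := by exact_mod_cast ht
  have : (s.card : ℤ) ≤ (e : ℤ) + t := by
    have h3 : (t : ℤ) * (s.card : ℤ) ≤ (t : ℤ) * ((e : ℤ) + t) := by linarith
    exact le_of_mul_le_mul_left h3 ht'
  exact_mod_cast this

end Cfsg.Agent.Lib.Helper81.CY3
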