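import Mathlib
import Cfsg.Agent.Lib.Helper81.CY3.LATW
import Cfsg.Agent.Lib.Helper81.CY3.LATU

set_option autoImplicit false
set_option linter.unusedSectionVars false

namespace Cfsg.Agent.Lib.Helper81.CY3

/-- [LAT] -/
theorem lat {I : Type*} [DecidableEq I] (s : Finset I) (e t : ℕ) (ht : 1 ≤ t)
    (x : Fin t → I → ℤ)
    (hG : ∀ i j, ∑ χ ∈ s, x i χ * x j χ = (e : ℤ) + if i = j then 1 else 0)
    (hne : ∀ χ ∈ s, ∃ j, x j χ ≠ 0) (hcard : s.card = e + t) :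
    ∃ (y : Fin t → I) (a : I → ℤ) (ε : Fin t → ℤ), Function.Injective y ∧ (∀ j, y j ∈ s) ∧
      (∀ χ, a χ = 1 ∨ a χ = -1) ∧ (∀ j, ε j = 1 ∨ ε j = -1) ∧ (∀ j, x j (y j) = ε j) ∧
      (∀ i j, i ≠ j → x i (y j) = 0) ∧ (∀ j, ∀ χ ∈ s, (∀ i, χ ≠ y i) → x j χ = a χ) := by
  classical
  have hsum := latu_sum s e t x hG
  have hnz : ∀ χ ∈ s, (fun j => x j χ) ≠ 0 := by
    intro χ hχ h
    obtain ⟨j, hj⟩ := hne χ hχ
    exact hj (congrFun h j)
  have hW : ∀ χ ∈ s, (t : ℤ) ≤ ((t : ℤ) + 1) * ∑ j, x j χ ^ 2 - (∑ j, x j χ) ^ 2 :=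
    fun χ hχ => (latw (fun j => x j χ) (hnz χ hχ)).1
  have heqW : ∀ χ ∈ s, ((t : ℤ) + 1) * ∑ j, x j χ ^ 2 - (∑ j, x j χ) ^ 2 = t := by
    have h1 : ∑ χ ∈ s, (t : ℤ) =
        ∑ χ ∈ s, (((t : ℤ) + 1) * ∑ j, x j χ ^ 2 - (∑ j, x j χ) ^ 2) := by
      rw [hsum, Finset.sum_const, nsmul_eq_mul, hcard]
      push_cast
      ring
    have := (Finset.sum_eq_sum_iff_of_le hW).1 h1
    intro χ hχ
    exact (this χ hχ).symm
  have htype : ∀ χ ∈ s,
      (∃ (j₀ : Fin t) (ε : ℤ), (ε = 1 ∨ ε = -1) ∧ ∀ j, x j χ = if j = j₀ then ε else 0) ∨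
      (∃ ε : ℤ, (ε = 1 ∨ ε = -1) ∧ ∀ j, x j χ = ε) :=
    fun χ hχ => (latw (fun j => x j χ) (hnz χ hχ)).2 (heqW χ hχ)
  let j0 : Fin t := ⟨0, ht⟩
  let a : I → ℤ := fun χ => if x j0 χ = 1 ∨ x j0 χ = -1 then x j0 χ else 1
  have ha : ∀ χ, a χ = 1 ∨ a χ = -1 := by
    intro χ
    simp only [a]
    split_ifs with h
    · exact h
    · left; rfl
  have haX : ∀ (χ : I) (ε : ℤ), (ε = 1 ∨ ε = -1) → (∀ j, x j χ = ε) → ∀ j, x j χ = a χ := by
    intro χ ε hε h j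
    simp only [a]
    rw [if_pos (by rw [h j0]; exact hε), h j, h j0]
  by_cases ht1 : t = 1
  · subst ht1
    have hne' : s.Nonempty := by
      rw [← Finset.card_pos, hcard]; omega
    obtain ⟨χ0, hχ0⟩ := hne'
    have hall : ∀ χ ∈ s, ∃ ε : ℤ, (ε = 1 ∨ ε = -1) ∧ ∀ j, x j χ = ε := by
      intro χ hχ
      rcases htype χ hχ with ⟨j₀, ε, hε, h⟩ | h
      · exact ⟨ε, hε, fun j => by rw [h j, if_pos (Subsingleton.elim _ _)]⟩
      · exact h
    obtain ⟨ε0, hε0, h0⟩ := hall χ0 hχ0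
    refine ⟨fun _ => χ0, a, fun _ => ε0, fun i j _ => Subsingleton.elim _ _, fun _ => hχ0, ha,
      fun _ => hε0, fun j => h0 j, fun i j hij => absurd (Subsingleton.elim _ _) hij, ?_⟩
    intro j χ hχ _
    obtain ⟨ε, hε, h⟩ := hall χ hχ
    exact haX χ ε hε h j
  · have ht2 : 2 ≤ t := by omega
    have hother : ∀ j : Fin t, ∃ i : Fin t, i ≠ j := by
      intro j
      by_cases hj : j.val = 0
      · refine ⟨⟨1, by omega⟩, ?_⟩
        intro h
        have := congrArg Fin.val h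
        simp at this
        omega
      · refine ⟨⟨0, by omega⟩, ?_⟩
        intro h
        have := congrArg Fin.val h
        simp at this
        omega
    have hsq : ∀ ε : ℤ, (ε = 1 ∨ ε = -1) → ε ^ 2 = 1 := by
      rintro ε (h | h) <;> rw [h] <;> norm_num
    -- the local term
    have hD : ∀ (j i : Fin t), i ≠ j → ∀ χ ∈ s,
        x j χ ^ 2 - x j χ * x i χ = 0 ∨ (x j χ ^ 2 - x j χ * x i χ = 1 ∧
          ∃ ε : ℤ, (ε = 1 ∨ ε = -1) ∧ ∀ k, x k χ = if k = j then ε else 0) := by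
      intro j i hij χ hχ
      rcases htype χ hχ with ⟨j₀, ε, hε, h⟩ | ⟨ε, hε, h⟩
      · by_cases hj : j = j₀
        · right
          subst hj
          refine ⟨?_, ε, hε, h⟩
          rw [h j, h i, if_pos rfl, if_neg hij, hsq ε hε]
          ring
        · left
          rw [h j, if_neg hj]
          ring
      · left
        rw [h j, h i]
        ring
    have hD1 : ∀ (j i : Fin t), i ≠ j → ∀ χ,
        (∃ ε : ℤ, (ε = 1 ∨ ε = -1) ∧ ∀ k, x k χ = if k = j then ε else 0) →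
        x j χ ^ 2 - x j χ * x i χ = 1 := by
      rintro j i hij χ ⟨ε, hε, h⟩
      rw [h j, h i, if_pos rfl, if_neg hij, hsq ε hε]
      ring
    have hDsum : ∀ (j i : Fin t), i ≠ j → ∑ χ ∈ s, (x j χ ^ 2 - x j χ * x i χ) = 1 := by
      intro j i hij
      rw [Finset.sum_sub_distrib, hG j i, if_neg (Ne.symm hij)]
      have := hG j j
      rw [if_pos rfl] at this
      have h2 : ∑ χ ∈ s, x j χ ^ 2 = ∑ χ ∈ s, x j χ * x j χ :=
        Finset.sum_congr rfl (fun χ _ => by ring)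
      rw [h2, this]
      ring
    have hex : ∀ j : Fin t, ∃ χ, χ ∈ s ∧
        ∃ ε : ℤ, (ε = 1 ∨ ε = -1) ∧ ∀ k, x k χ = if k = j then ε else 0 := by
      intro j
      obtain ⟨i, hij⟩ := hother j
      by_contra hcon
      have hzero : ∑ χ ∈ s, (x j χ ^ 2 - x j χ * x i χ) = 0 := by
        apply Finset.sum_eq_zero
        intro χ hχ
        rcases hD j i hij χ hχ with h | ⟨_, h⟩
        · exact h
        · exact absurd ⟨χ, hχ, h⟩ hcon
      rw [hDsum j i hij] at hzero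
      exact one_ne_zero hzero
    have huniq : ∀ (j : Fin t) (χ1 χ2 : I), χ1 ∈ s → χ2 ∈ s →
        (∃ ε : ℤ, (ε = 1 ∨ ε = -1) ∧ ∀ k, x k χ1 = if k = j then ε else 0) →
        (∃ ε : ℤ, (ε = 1 ∨ ε = -1) ∧ ∀ k, x k χ2 = if k = j then ε else 0) → χ1 = χ2 := by
      intro j χ1 χ2 h1 h2 hT1 hT2
      by_contra hne12
      obtain ⟨i, hij⟩ := hother j
      have hsub : ({χ1, χ2} : Finset I) ⊆ s := by
        intro χ hχ
        rw [Finset.mem_insert, Finset.mem_singleton] at hχ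
        rcases hχ with rfl | rfl
        · exact h1
        · exact h2
      have hle : ∑ χ ∈ ({χ1, χ2} : Finset I), (x j χ ^ 2 - x j χ * x i χ) ≤
          ∑ χ ∈ s, (x j χ ^ 2 - x j χ * x i χ) := by
        apply Finset.sum_le_sum_of_subset_of_nonneg hsub
        intro χ hχ _
        rcases hD j i hij χ hχ with h | ⟨h, _⟩ <;> rw [h]
        norm_num
      rw [Finset.sum_pair hne12, hD1 j i hij χ1 hT1, hD1 j i hij χ2 hT2, hDsum j i hij] at hle
      norm_num at hle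
    choose y hys hyT using hex
    choose ε hε hyx using hyT
    refine ⟨y, a, ε, ?_, hys, ha, hε, ?_, ?_, ?_⟩
    · intro j j' hjj
      by_contra hne'
      have h1 := hyx j j
      have h2 := hyx j' j
      rw [if_pos rfl] at h1
      rw [if_neg hne', ← hjj, h1] at h2
      rcases hε j with h | h <;> rw [h] at h2 <;> norm_num at h2
    · intro j
      rw [hyx j j, if_pos rfl]
    · intro i j hij
      rw [hyx j i, if_neg hij]
    · intro j χ hχ hny
      rcases htype χ hχ with ⟨j₀, ε', hε', h⟩ | ⟨ε', hε', h⟩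
      · exact absurd (huniq j₀ χ (y j₀) hχ (hys j₀) ⟨ε', hε', h⟩ ⟨ε j₀, hε j₀, hyx j₀⟩) (hny j₀)
      · exact haX χ ε' hε' h j

end Cfsg.Agent.Lib.Helper81.CY3
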