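import Cfsg.Agent.Lib.Helper81.CY3.COL
import Cfsg.Agent.Lib.Helper81.CY3.LAT
import Cfsg.Agent.Lib.Helper81.CY3.CG

set_option autoImplicit false
set_option linter.unusedSectionVars false
open Cfsg
open scoped ComplexConjugate
open Cfsg.Agent.Lib.Helper20 Cfsg.Agent.Lib.Helper81

namespace Cfsg.Agent.Lib.Helper81.CY3

variable {G : Type*} [Group G] [Fintype G] {p : ℕ} [Fact p.Prime] {M : Ideal AlgInt}

/-- [SH] the shape. -/
theorem sh (hM : IsPModular p M) {B : Set (IrrCharacter G)} (hB : IsPBlock M B)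
    (hd : blockDefect p B ≠ 0) {e t : ℕ} (ht : 1 ≤ t) {x : Fin t → IrrCharacter G → ℤ}
    (hc : Core p B e t x) (hl : blockRank p B = e) :
    ∃ (X Y : Set (IrrCharacter G)) (δ : IrrCharacter G → ℤ) (δ₀ : ℤ), Shape p B X Y e t δ δ₀ := by
  classical
  have : Finite (Cfsg.IrrCharacter G) := finite_irrCharacter
  have : Fintype (Cfsg.IrrCharacter G) := Fintype.ofFinite _
  have hcardB : Nat.card B = (Finset.univ.filter (· ∈ B)).card := by
    rw [Nat.card_eq_fintype_card, Fintype.card_subtype]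
  obtain ⟨y, a, ε, hinj, hys, ha, hε, hxy, hx0, hxa⟩ := lat (Finset.univ.filter (· ∈ B)) e t ht x
    (fun i j => by
      rw [← hc.gram i j, finsum_eq_sum_of_fintype, Finset.sum_filter]
      apply Finset.sum_congr rfl; intro χ _
      split_ifs with hχ
      · rfl
      · rw [hc.supp i χ hχ, zero_mul])
    (fun χ hχ => col hM hB hd hc (by simpa using hχ))
    (by rw [← hcardB, hc.card, hl])
  have hyB : ∀ j, y j ∈ B := fun j => by simpa using hys j
  have hYB : Set.range y ⊆ B := by rintro _ ⟨j, rfl⟩; exact hyB j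
  -- the decomposition of `ψ_j`
  have hdec : ∀ (j : Fin t) (F : IrrCharacter G → ℂ),
      ∑ᶠ χ : IrrCharacter G, (x j χ : ℂ) * F χ
        = (ε j : ℂ) * F (y j) + ∑ᶠ χ ∈ B \ Set.range y, (a χ : ℂ) * F χ := by
    intro j F
    rw [finsum_eq_sum_of_fintype, finsum_mem_irr]
    have h1 : ∀ χ : IrrCharacter G, (x j χ : ℂ) * F χ
        = (if χ = y j then (ε j : ℂ) * F χ else 0)
          + (if χ ∈ B \ Set.range y then (a χ : ℂ) * F χ else 0) := by
      intro χ
      by_cases hχB : χ ∈ B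
      · by_cases hχY : χ ∈ Set.range y
        · obtain ⟨i, rfl⟩ := hχY
          have hnX : y i ∉ B \ Set.range y := fun h => h.2 ⟨i, rfl⟩
          rw [if_neg hnX, add_zero]
          by_cases hij : i = j
          · subst hij
            rw [if_pos rfl, hxy]
          · rw [if_neg (fun h => hij (hinj h)), hx0 j i (fun h => hij h.symm)]
            simp
        · have hX : χ ∈ B \ Set.range y := ⟨hχB, hχY⟩
          rw [if_pos hX, if_neg (fun h => hχY ⟨j, h.symm⟩), zero_add,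
            hxa j χ (by simpa using hχB) (fun i h => hχY ⟨i, h.symm⟩)]
      · rw [if_neg (fun h : χ = y j => hχB (h ▸ hyB j)), if_neg (fun h : χ ∈ B \ Set.range y => hχB h.1), hc.supp j χ hχB]
        simp
    simp_rw [h1]
    rw [Finset.sum_add_distrib, Finset.sum_ite_eq' Finset.univ (y j), if_pos (Finset.mem_univ _)]
  have hreg1 : ¬ p ∣ orderOf (1 : G) := by
    rw [orderOf_one]
    exact (Fact.out : p.Prime).one_lt.ne' ∘ Nat.dvd_one.1
  -- the signs agree
  have hsign : ∀ j, ε j = ε ⟨0, ht⟩ := by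
    intro j
    have h1 := hc.van j 1 hreg1
    have h2 := hc.van ⟨0, ht⟩ 1 hreg1
    rw [hdec j (fun χ => (χ : G → ℂ) 1)] at h1
    rw [hdec ⟨0, ht⟩ (fun χ => (χ : G → ℂ) 1)] at h2
    have h3 : (ε j : ℂ) * (y j : G → ℂ) 1 = (ε ⟨0, ht⟩ : ℂ) * (y ⟨0, ht⟩ : G → ℂ) 1 := by
      linear_combination h1 - h2
    rw [irr_one_eq, irr_one_eq] at h3
    have h4 : ε j * (charDegree (y j : G → ℂ) : ℤ)
        = ε ⟨0, ht⟩ * (charDegree (y ⟨0, ht⟩ : G → ℂ) : ℤ) := by exact_mod_cast h3
    have p1 : (0 : ℤ) < (charDegree (y j : G → ℂ) : ℤ) := by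
      exact_mod_cast Nat.pos_of_ne_zero (charDegree_ne_zero (y j))
    have p2 : (0 : ℤ) < (charDegree (y ⟨0, ht⟩ : G → ℂ) : ℤ) := by
      exact_mod_cast Nat.pos_of_ne_zero (charDegree_ne_zero (y ⟨0, ht⟩))
    rcases hε j with h5 | h5 <;> rcases hε ⟨0, ht⟩ with h6 | h6 <;> rw [h5, h6] at h4 ⊢ <;>
      first | rfl | (exfalso; linarith)
  refine ⟨B \ Set.range y, Set.range y, a, ε ⟨0, ht⟩, ?_⟩
  have hcY : Nat.card (Set.range y) = t := by
    rw [Nat.card_range_of_injective hinj, Nat.card_eq_fintype_card, Fintype.card_fin]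
  refine
    { union := (Set.sdiff_union_of_subset hYB).symm
      disj := Set.disjoint_sdiff_left
      cardX := ?_
      cardY := hcY
      sign := fun χ _ => ha χ
      sign0 := hε _
      rel := ?_
      sing := ?_ }
  · have h1 := Set.ncard_sdiff hYB (Set.toFinite _)
    rw [← Nat.card_coe_set_eq, ← Nat.card_coe_set_eq, ← Nat.card_coe_set_eq, hcY,
      hc.card, hl] at h1
    omega
  · rintro _ ⟨j, rfl⟩ g hg
    have h1 := hc.van j g hg
    rw [hdec j (fun χ => (χ : G → ℂ) g), hsign j] at h1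
    exact h1
  · intro χ hχ χ' hχ' g hg
    have hsq : ∀ ψ, a ψ * a ψ = 1 := by
      intro ψ
      rcases ha ψ with h | h <;> rw [h] <;> norm_num
    have h1 := reg hM hB hc
      (fun ψ => (if ψ = χ then a χ else 0) - (if ψ = χ' then a χ' else 0))
      (fun ψ hψ => by
        rw [if_neg (fun h : ψ = χ => hψ (h ▸ hχ.1)), if_neg (fun h : ψ = χ' => hψ (h ▸ hχ'.1)),
          sub_zero])
      (fun j => by
        have h2 := cg_two (R := ℤ) χ χ' (a χ) (a χ') (fun ψ => x j ψ)
        simp only [Int.cast_id] at h2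
        rw [h2, hxa j χ (by simpa using hχ.1) (fun i h => hχ.2 ⟨i, h.symm⟩),
          hxa j χ' (by simpa using hχ'.1) (fun i h => hχ'.2 ⟨i, h.symm⟩), hsq, hsq, sub_self])
      g hg
    rw [cg_two (R := ℂ) χ χ' (a χ) (a χ') (fun ψ => (ψ : G → ℂ) g)] at h1
    exact sub_eq_zero.1 h1

end Cfsg.Agent.Lib.Helper81.CY3
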