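import Cfsg.Agent.Lib.Helper81.CY3.Defs

set_option autoImplicit false
set_option linter.unusedSectionVars false
open Cfsg
open scoped ComplexConjugate
open Cfsg.Agent.Lib.Helper20 Cfsg.Agent.Lib.Helper81

namespace Cfsg.Agent.Lib.Helper81.CY3

variable {G : Type*} [Group G] [Fintype G] {p : ℕ} [Fact p.Prime] {M : Ideal AlgInt}

/-- [NZ] a character of a block of positive defect does not vanish on all `p`-singular elements. -/
theorem nz (hM : IsPModular p M) {B : Set (IrrCharacter G)} (hB : IsPBlock M B)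
    (hd : blockDefect p B ≠ 0) {χ : IrrCharacter G} (hχ : χ ∈ B) :
    ∃ g : G, p ∣ orderOf g ∧ (χ : G → ℂ) g ≠ 0 := by
  classical
  by_contra hcon
  push Not at hcon
  have hπ : pRegularPart p (χ : G → ℂ) = (χ : G → ℂ) := by
    funext x
    rw [pRegularPart_eq]
    by_cases hx : IsPRegular p x
    · simp only [if_pos hx]
    · simp only [if_neg hx]
      have : p ∣ orderOf x := by simpa [IsPRegular] using hx
      exact (hcon x this).symm
  obtain ⟨χ₀, hχ₀, hmin⟩ := exists_minDeg (p := p) (B := B) ⟨χ, hχ⟩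
  have h0 : blockHeight p B (χ₀ : G → ℂ) = 0 := (blockHeight_eq_zero_iff hχ₀).2 hmin
  have hk := (kC_of_height_zero hM hB hχ₀ hχ h0).2
  have hs := kC_spec (p := p) (B := B) hM χ₀ hχ
  rw [mC_symm, mC, hπ] at hs
  by_cases hne : χ = χ₀
  · subst hne
    rw [classInner_irr_self χ.2, mul_one] at hs
    exact hd (defect_zero_of_kC_self hM hB hχ h0 (by exact_mod_cast hs))
  · rw [classInner_irr_ne χ.2 χ₀.2 (fun h => hne (Subtype.ext h)), mul_zero] at hs
    exact hk (by exact_mod_cast hs)

end Cfsg.Agent.Lib.Helper81.CY3
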