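import Cfsg.Agent.Lib.Helper81.CY3.REG
import Cfsg.Agent.Lib.Helper81.CY3.NZ

set_option autoImplicit false
set_option linter.unusedSectionVars false
open Cfsg
open scoped ComplexConjugate
open Cfsg.Agent.Lib.Helper20 Cfsg.Agent.Lib.Helper81

namespace Cfsg.Agent.Lib.Helper81.CY3

variable {G : Type*} [Group G] [Fintype G] {p : ℕ} [Fact p.Prime] {M : Ideal AlgInt}

/-- [COL] all the columns are nonzero. -/
theorem col (hM : IsPModular p M) {B : Set (IrrCharacter G)} (hB : IsPBlock M B)
    (hd : blockDefect p B ≠ 0) {e t : ℕ} {x : Fin t → IrrCharacter G → ℤ} (hc : Core p B e t x)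
    {χ : IrrCharacter G} (hχ : χ ∈ B) : ∃ j, x j χ ≠ 0 := by
  classical
  have : Finite (Cfsg.IrrCharacter G) := finite_irrCharacter
  have : Fintype (Cfsg.IrrCharacter G) := Fintype.ofFinite _
  by_contra hcon
  push Not at hcon
  obtain ⟨g, hg, hne⟩ := nz hM hB hd hχ
  have h := reg hM hB hc (fun ψ => if ψ = χ then 1 else 0)
    (fun ψ hψ => if_neg (fun h : ψ = χ => hψ (h ▸ hχ)))
    (fun j => by
      rw [finsum_eq_sum_of_fintype]
      simp [hcon j]) g hg
  rw [finsum_eq_sum_of_fintype] at h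
  simp at h
  exact hne h

end Cfsg.Agent.Lib.Helper81.CY3
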