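import Cfsg.Agent.Lib.Helper81.CY3.Defs
import Cfsg.Agent.Lib.Helper81.BlockDim

set_option autoImplicit false
set_option linter.unusedSectionVars false
open Cfsg
open scoped ComplexConjugate
open Cfsg.Agent.Lib.Helper20 Cfsg.Agent.Lib.Helper81

namespace Cfsg.Agent.Lib.Helper81.CY3

variable {G : Type*} [Group G] [Fintype G] {p : ℕ} [Fact p.Prime] {M : Ideal AlgInt}

/-- [DEG] a generalized character vanishing on the `p`-singular elements has degree divisible by
`|G|_p`. -/
theorem deg (c : IrrCharacter G → ℤ)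
    (hvan : ∀ g : G, p ∣ orderOf g → ∑ᶠ χ : IrrCharacter G, (c χ : ℂ) * (χ : G → ℂ) g = 0) :
    (p : ℤ) ^ (Nat.card G).factorization p ∣
      ∑ᶠ χ : IrrCharacter G, c χ * (charDegree (χ : G → ℂ) : ℤ) := by
  classical
  have : Finite (Cfsg.IrrCharacter G) := finite_irrCharacter
  have : Fintype (Cfsg.IrrCharacter G) := Fintype.ofFinite _
  have h := pow_dvd_degree_of_vanish (G := G) (p := p) (Fact.out) c (fun x hx => by
    have := hvan x hx
    rwa [finsum_eq_sum_of_fintype] at this)
  rw [finsum_eq_sum_of_fintype]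
  exact_mod_cast h

end Cfsg.Agent.Lib.Helper81.CY3
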