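import Cfsg.Agent.Lib.Helper81.RankSum
import Cfsg.Agent.Lib.Helper21.DefectCard

/-! Blocks with cyclic defect groups, degrees and signs: the definitions of the ladder. -/

set_option autoImplicit false
set_option linter.unusedSectionVars false
open Cfsg
open scoped ComplexConjugate

namespace Cfsg.Agent.Lib.Helper81.CY3

/-- the core data: `t` generalized characters `ψ_j = ∑ x j χ • χ` in `ℤ B`, vanishing on the
`p`-regular elements, with Gram matrix `e J + I`, and `k(B) = l(B) + t`. -/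
structure Core (p : ℕ) {G : Type*} [Group G] (B : Set (IrrCharacter G)) (e t : ℕ)
    (x : Fin t → IrrCharacter G → ℤ) : Prop where
  supp : ∀ j χ, χ ∉ B → x j χ = 0
  van : ∀ j (g : G), ¬ p ∣ orderOf g → ∑ᶠ χ : IrrCharacter G, (x j χ : ℂ) * (χ : G → ℂ) g = 0
  gram : ∀ i j, ∑ᶠ χ : IrrCharacter G, x i χ * x j χ = (e : ℤ) + if i = j then 1 else 0
  card : Nat.card B = blockRank p B + t

/-- the shape of the block -/
structure Shape (p : ℕ) {G : Type*} [Group G] (B X Y : Set (IrrCharacter G)) (e t : ℕ)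
    (δ : IrrCharacter G → ℤ) (δ₀ : ℤ) : Prop where
  union : B = X ∪ Y
  disj : Disjoint X Y
  cardX : Nat.card X = e
  cardY : Nat.card Y = t
  sign : ∀ χ ∈ X, δ χ = 1 ∨ δ χ = -1
  sign0 : δ₀ = 1 ∨ δ₀ = -1
  rel : ∀ ψ ∈ Y, ∀ g : G, ¬ p ∣ orderOf g →
    (δ₀ : ℂ) * (ψ : G → ℂ) g + ∑ᶠ χ ∈ X, (δ χ : ℂ) * (χ : G → ℂ) g = 0
  sing : ∀ χ ∈ X, ∀ χ' ∈ X, ∀ g : G, p ∣ orderOf g →
    (δ χ : ℂ) * (χ : G → ℂ) g = (δ χ' : ℂ) * (χ' : G → ℂ) g

end Cfsg.Agent.Lib.Helper81.CY3
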