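import Cfsg.Agent.Lib.Helper81.CY3.CG

set_option autoImplicit false
set_option linter.unusedSectionVars false
open Cfsg
open scoped ComplexConjugate
open Cfsg.Agent.Lib.Helper20 Cfsg.Agent.Lib.Helper81

namespace Cfsg.Agent.Lib.Helper81.CY3

variable {G : Type*} [Group G] [Fintype G] {p : ℕ} [Fact p.Prime] {M : Ideal AlgInt}

theorem ht_dvd_iff {N a b : ℤ} (h : a ≡ b [ZMOD N]) : N ∣ a ↔ N ∣ b := by
  have h1 := Int.modEq_iff_dvd.1 h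
  constructor
  · intro h2
    have := dvd_add h1 h2
    simpa using this
  · intro h2
    have := dvd_sub h2 h1
    simpa using this

theorem ht_sign {N u a : ℤ} (hu : u = 1 ∨ u = -1) : N ∣ u * a ↔ N ∣ a := by
  rcases hu with h | h <;> rw [h] <;> simp

/-- [HT] all heights are zero. -/
theorem ht {B X Y : Set (IrrCharacter G)} {e t : ℕ} {δ : IrrCharacter G → ℤ} {δ₀ : ℤ}
    (hs : Shape p B X Y e t δ δ₀) (hd : blockDefect p B ≠ 0) (he1 : 1 ≤ e) (hpe : ¬ p ∣ e) :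
    ∀ χ ∈ B, blockHeight p B (χ : G → ℂ) = 0 := by
  classical
  have hp : p.Prime := Fact.out
  obtain ⟨χ₁, hχ₁⟩ : X.Nonempty := by
    have h1 : 0 < Nat.card X := by rw [hs.cardX]; exact he1
    obtain ⟨y⟩ := (Nat.card_pos_iff.1 h1).1
    exact ⟨y.1, y.2⟩
  have hne : B.Nonempty := ⟨χ₁, by rw [hs.union]; exact Or.inl hχ₁⟩
  have hadd := blockDefect_add (p := p) hne
  obtain ⟨m, hm⟩ : ∃ m, m = minDeg p B := ⟨_, rfl⟩
  have hmn : m + 1 ≤ (Nat.card G).factorization p := by omega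
  have hdvd : (p : ℤ) ^ (m + 1) ∣ (p : ℤ) ^ (Nat.card G).factorization p := pow_dvd_pow _ hmn
  obtain ⟨hc1, hc2⟩ := cg hs
  have hX : ∀ χ ∈ X, ((p : ℤ) ^ (m + 1) ∣ (charDegree (χ : G → ℂ) : ℤ) ↔
      (p : ℤ) ^ (m + 1) ∣ (charDegree (χ₁ : G → ℂ) : ℤ)) := by
    intro χ hχ
    rw [← ht_sign (hs.sign χ hχ), ← ht_sign (a := (charDegree (χ₁ : G → ℂ) : ℤ)) (hs.sign χ₁ hχ₁)]
    exact ht_dvd_iff ((hc1 χ hχ χ₁ hχ₁).of_dvd hdvd)
  have hcop : IsCoprime ((p : ℤ) ^ (m + 1)) (e : ℤ) := by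
    apply IsCoprime.pow_left
    rw [Int.isCoprime_iff_gcd_eq_one, Int.gcd_natCast_natCast]
    exact (Nat.Prime.coprime_iff_not_dvd hp).2 hpe
  have hY : ∀ ψ ∈ Y, ((p : ℤ) ^ (m + 1) ∣ (charDegree (ψ : G → ℂ) : ℤ) ↔
      (p : ℤ) ^ (m + 1) ∣ (charDegree (χ₁ : G → ℂ) : ℤ)) := by
    intro ψ hψ
    rw [ht_dvd_iff ((hc2 ψ hψ χ₁ hχ₁).of_dvd hdvd), dvd_neg]
    have e1 : (e : ℤ) * δ₀ * δ χ₁ * (charDegree (χ₁ : G → ℂ) : ℤ)
        = δ₀ * (δ χ₁ * ((e : ℤ) * (charDegree (χ₁ : G → ℂ) : ℤ))) := by ring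
    rw [e1, ht_sign hs.sign0, ht_sign (hs.sign χ₁ hχ₁)]
    exact ⟨fun h => hcop.dvd_of_dvd_mul_left h, fun h => Dvd.dvd.mul_left h _⟩
  have hall : ∀ χ ∈ B, ((p : ℤ) ^ (m + 1) ∣ (charDegree (χ : G → ℂ) : ℤ) ↔
      (p : ℤ) ^ (m + 1) ∣ (charDegree (χ₁ : G → ℂ) : ℤ)) := by
    intro χ hχ
    rw [hs.union] at hχ
    rcases hχ with h | h
    · exact hX χ h
    · exact hY χ h
  have hnat : ∀ χ : IrrCharacter G, ((p : ℤ) ^ (m + 1) ∣ (charDegree (χ : G → ℂ) : ℤ) ↔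
      m + 1 ≤ nuDeg p χ) := by
    intro χ
    have : ((p : ℤ) ^ (m + 1)) = ((p ^ (m + 1) : ℕ) : ℤ) := by push_cast; rfl
    rw [this, Int.natCast_dvd_natCast, hp.pow_dvd_iff_le_factorization (charDegree_ne_zero χ)]
    rfl
  obtain ⟨χ₀, hχ₀, hmin⟩ := exists_minDeg (p := p) hne
  have hno : ¬ (p : ℤ) ^ (m + 1) ∣ (charDegree (χ₁ : G → ℂ) : ℤ) := by
    rw [← hall χ₀ hχ₀, hnat]
    omega
  intro χ hχ
  rw [blockHeight_eq_zero_iff hχ]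
  have h1 := minDeg_le (p := p) hχ
  have h2 : ¬ m + 1 ≤ nuDeg p χ := by
    rw [← hnat, hall χ hχ]; exact hno
  omega

end Cfsg.Agent.Lib.Helper81.CY3
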