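import Cfsg.Agent.Lib.Helper81.CY3.SH
import Cfsg.Agent.Lib.Helper81.CY3.HT
import Cfsg.Agent.Lib.Helper78.Cyc1Nilc

/-! Blocks with cyclic defect groups, degrees and signs: the assembly. -/

set_option autoImplicit false
set_option linter.unusedSectionVars false
open Cfsg
open scoped ComplexConjugate
open Cfsg.Agent.Lib.Helper20 Cfsg.Agent.Lib.Helper81 Cfsg.Agent.Lib.Helper80
open Cfsg.Agent.Lib.Helper80.GA Cfsg.Agent.Lib.Helper5

namespace Cfsg.Agent.Lib.Helper81.CY3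

variable {G : Type*} [Group G] [Fintype G] {p : ℕ} [Fact p.Prime] {M : Ideal AlgInt}

theorem asm (hM : IsPModular p M) {B : Set (IrrCharacter G)} (hB : IsPBlock M B) {a : ℕ}
    (ha : 1 ≤ a) (hd : blockDefect p B = a) {e t : ℕ} (hte : t * e = p ^ a - 1)
    (hep : e ∣ p - 1) {x : Fin t → IrrCharacter G → ℤ} (hc : Core p B e t x)
    (hl : blockRank p B = e) :
    (∀ χ ∈ B, Cfsg.blockHeight p B (χ : G → ℂ) = 0) ∧ ∃ X Y : Set (Cfsg.IrrCharacter G), B = X ∪ Y ∧ Disjoint X Y ∧ Nat.card X = e ∧ Nat.card Y = (p ^ a - 1) / e ∧ (∀ ψ ∈ Y, ∀ ψ' ∈ Y, ∀ g : G, ¬ p ∣ orderOf g → (ψ : G → ℂ) g = (ψ' : G → ℂ) g) ∧ ∃ (δ : Cfsg.IrrCharacter G → ℤ) (δ₀ : ℤ), (∀ χ ∈ X, δ χ = 1 ∨ δ χ = -1) ∧ (δ₀ = 1 ∨ δ₀ = -1) ∧ (∀ ψ ∈ Y, ∀ g : G, ¬ p ∣ orderOf g → (δ₀ : ℂ) * (ψ : G → ℂ) g + ∑ᶠ χ ∈ X, (δ χ : ℂ) * (χ : G → ℂ) g = 0) ∧ (∀ χ ∈ X, ∀ χ' ∈ X, δ χ * (Cfsg.charDegree (χ : G → ℂ) : ℤ) ≡ δ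 χ' * (Cfsg.charDegree (χ' : G → ℂ) : ℤ) [ZMOD (p : ℤ) ^ a]) ∧ (∀ ψ ∈ Y, ∀ χ ∈ X, (Cfsg.charDegree (ψ : G → ℂ) : ℤ) ≡ -((e : ℤ) * δ₀ * δ χ * (Cfsg.charDegree (χ : G → ℂ) : ℤ)) [ZMOD (p : ℤ) ^ a]) := by
  have hp : p.Prime := Fact.out
  have hp2 : 2 ≤ p := hp.two_le
  have he1 : 1 ≤ e := by
    rcases Nat.eq_zero_or_pos e with h0 | h0
    · rw [h0, zero_dvd_iff] at hep; omega
    · exact h0
  have hpe : ¬ p ∣ e := by
    intro h
    have h1 := Nat.le_of_dvd he1 h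
    have h2 := Nat.le_of_dvd (by omega) hep
    omega
  have hpa : p ≤ p ^ a := by
    calc p = p ^ 1 := (pow_one p).symm
      _ ≤ p ^ a := Nat.pow_le_pow_right hp.pos ha
  have ht1 : 1 ≤ t := by
    rcases Nat.eq_zero_or_pos t with h0 | h0
    · rw [h0, zero_mul] at hte; omega
    · exact h0
  have hd0 : blockDefect p B ≠ 0 := by omega
  obtain ⟨X, Y, δ, δ₀, hs⟩ := sh hM hB hd0 ht1 hc hl
  have hcg := cg hs
  have han : a ≤ (Nat.card G).factorization p := by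
    have := blockDefect_add (p := p) (isPBlock_nonempty hM hB)
    omega
  have hdvd : (p : ℤ) ^ a ∣ (p : ℤ) ^ (Nat.card G).factorization p := pow_dvd_pow _ han
  have hδ₀ : (δ₀ : ℂ) ≠ 0 := by
    rcases hs.sign0 with h | h <;> rw [h] <;> norm_num
  refine ⟨ht hs hd0 he1 hpe, X, Y, hs.union, hs.disj, hs.cardX, ?_, ?_, δ, δ₀, hs.sign, hs.sign0,
    hs.rel, fun χ hχ χ' hχ' => (hcg.1 χ hχ χ' hχ').of_dvd hdvd,
    fun ψ hψ χ hχ => (hcg.2 ψ hψ χ hχ).of_dvd hdvd⟩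
  · rw [hs.cardY, ← hte, Nat.mul_div_cancel _ he1]
  · intro ψ hψ ψ' hψ' g hg
    have h1 := hs.rel ψ hψ g hg
    have h2 := hs.rel ψ' hψ' g hg
    have h3 : (δ₀ : ℂ) * (ψ : G → ℂ) g = (δ₀ : ℂ) * (ψ' : G → ℂ) g := by
      have := h1.trans h2.symm
      exact add_right_cancel this
    exact mul_left_cancel₀ hδ₀ h3

/-- the inertial index divides `p - 1` -/
theorem relIndex_dvd (hM : IsPModular p M) {B : Set (IrrCharacter G)} (hB : IsPBlock M B)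
    {P : Subgroup G} (hPD : IsDefectGroup p M B P) (hcyc : IsCyclic P) (hP1 : P ≠ ⊥)
    {e : GA (Kr hM) G} (hmax : IsMaxBP p (blkR hM B) P e) :
    (Cn P).relIndex (stabP P e) ∣ p - 1 := by
  have hab := comm_of_isCyclic hcyc
  have hdef := isDef_of_isDefectGroup hM hB hPD
  have he : IsBP p P e := hmax.1.1
  have hN : P ⊔ Cn P ≤ stabP P e := sup_le (le_stabP he.2.inZ) (Cn_le_stabP he.2.inZ)
  have hblk : IsBlk (P ⊔ Cn P) e :=
    he.isBlk_of_fix le_sup_left le_sup_right (hN.trans (stabP_le_Nn P _))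
      ((fixBy_stabP P _).mono hN)
  have hsp := split_sub hM hblk
  have hTp : ∀ S : Subgroup G, S ≤ stabP P e → IsPGroup p S →
      S ≤ Subgroup.centralizer (P : Set G) := fun S hS hSp =>
    (hmax.pSubgroup_le hsp hS hSp).trans (sup_le (le_Cn_of_abelian hab le_rfl) le_rfl)
  have hfree : ∀ g ∈ stabP P e, ∀ x ∈ P, x ≠ 1 → g * x * g⁻¹ = x → g ∈ Cn P :=
    fun g hg x hx hx1 h => cyc_free hdef.pgroup hcyc (stabP_le_Nn P e) hTp hg hx hx1 h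
  haveI : ((Subgroup.centralizer (P : Set G)).subgroupOf (stabP P e)).Normal :=
    Subgroup.normal_subgroupOf_of_le_normalizer
      (fun g hg => Nn_le_normalizer_Cn P (stabP_le_Nn P e hg))
  exact (cyc_quot hdef.pgroup hP1 hcyc (stabP_le_Nn P e) hfree).2

/-- the core data from sums over a `Fintype` -/
theorem core_of [Fintype (IrrCharacter G)] {B : Set (IrrCharacter G)} {e t : ℕ}
    {x : Fin t → IrrCharacter G → ℤ} (h1 : Nat.card B = blockRank p B + t)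
    (h2 : ∀ j χ, χ ∉ B → x j χ = 0)
    (h3 : ∀ j (g : G), IsPRegular p g → ∑ χ : IrrCharacter G, (x j χ : ℂ) * (χ : G → ℂ) g = 0)
    (h4 : ∀ i j, ∑ χ : IrrCharacter G, x i χ * x j χ = (e : ℤ) + if i = j then 1 else 0) :
    Core p B e t x :=
  ⟨h2, fun j g hg => by rw [finsum_eq_sum_of_fintype]; exact h3 j g hg,
    fun i j => by rw [finsum_eq_sum_of_fintype]; exact h4 i j, h1⟩

end Cfsg.Agent.Lib.Helper81.CY3
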