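import Cfsg.Agent.Lib.Helper81.CY3.Defs

set_option autoImplicit false
set_option linter.unusedSectionVars false
open Cfsg
open scoped ComplexConjugate
open Cfsg.Agent.Lib.Helper20 Cfsg.Agent.Lib.Helper81

namespace Cfsg.Agent.Lib.Helper81.CY3

/-- a `finsum` over a fintype of a function supported on `B` is the sum over the subtype. -/
theorem reg_sum {I A : Type*} [AddCommMonoid A] [Fintype I] (B : Set I) [Fintype B] (F : I → A)
    (hF : ∀ χ, χ ∉ B → F χ = 0) : ∑ᶠ χ : I, F χ = ∑ χ : B, F χ := by
  classical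
  rw [finsum_eq_sum_of_fintype]
  rw [← Finset.sum_subtype (Finset.univ.filter (· ∈ B)) (by simp) F]
  rw [Finset.sum_filter]
  apply Finset.sum_congr rfl; intro χ _
  split_ifs with h
  · rfl
  · exact hF χ h

/-- vectors with Gram matrix `e J + I` are linearly independent. -/
theorem reg_indep {J : Type*} [Fintype J] {e t : ℕ} (X : Fin t → J → ℂ)
    (hG : ∀ i j, ∑ χ : J, X i χ * X j χ = (e : ℂ) + if i = j then 1 else 0) :
    LinearIndependent ℂ X := by
  classical
  rw [Fintype.linearIndependent_iff]
  intro a ha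
  have h1 : ∀ i, (e : ℂ) * ∑ j, a j + a i = 0 := by
    intro i
    have h2 : ∑ χ : J, (∑ j, a j • X j) χ * X i χ = 0 := by
      rw [ha]; simp
    have h3 : ∑ χ : J, (∑ j, a j • X j) χ * X i χ = ∑ j, a j * ((e : ℂ) + if j = i then 1 else 0) := by
      simp only [Finset.sum_apply, Pi.smul_apply, smul_eq_mul, Finset.sum_mul]
      rw [Finset.sum_comm]
      apply Finset.sum_congr rfl; intro j _
      rw [← hG j i, Finset.mul_sum]
      apply Finset.sum_congr rfl; intro χ _
      ring
    rw [h3] at h2
    simp only [mul_add, Finset.sum_add_distrib, mul_ite, mul_one, mul_zero, Finset.sum_ite_eq',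
      Finset.mem_univ, if_true] at h2
    rw [← h2, Finset.mul_sum]
    congr 1
    apply Finset.sum_congr rfl; intro j _
    ring
  have h4 : ((e : ℂ) * t + 1) * ∑ j, a j = 0 := by
    have := Finset.sum_congr rfl (fun i (_ : i ∈ Finset.univ) => h1 i)
    simp only [Finset.sum_add_distrib, Finset.sum_const, Finset.card_univ, Fintype.card_fin,
      nsmul_eq_mul, mul_zero] at this
    linear_combination this
  have h5 : ((e : ℂ) * t + 1) ≠ 0 := by
    have : ((e * t + 1 : ℕ) : ℂ) ≠ 0 := Nat.cast_ne_zero.2 (Nat.succ_ne_zero _)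
    push_cast at this
    exact this
  have h6 : ∑ j, a j = 0 := (mul_eq_zero.1 h4).resolve_left h5
  intro i
  have := h1 i
  rw [h6, mul_zero, zero_add] at this
  exact this

variable {G : Type*} [Group G] [Fintype G] {p : ℕ} [Fact p.Prime] {M : Ideal AlgInt}

/-- [REG] an element of `ℂ B` orthogonal to all `ψ_j` vanishes on the `p`-singular elements. -/
theorem reg (hM : IsPModular p M) {B : Set (IrrCharacter G)} (hB : IsPBlock M B) {e t : ℕ}
    {x : Fin t → IrrCharacter G → ℤ} (hc : Core p B e t x) (c : IrrCharacter G → ℤ)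
    (hsupp : ∀ χ, χ ∉ B → c χ = 0) (horth : ∀ j, ∑ᶠ χ : IrrCharacter G, c χ * x j χ = 0)
    (g : G) (hg : p ∣ orderOf g) : ∑ᶠ χ : IrrCharacter G, (c χ : ℂ) * (χ : G → ℂ) g = 0 := by
  classical
  have : Finite (Cfsg.IrrCharacter G) := finite_irrCharacter
  have : Fintype (Cfsg.IrrCharacter G) := Fintype.ofFinite _
  have : Fintype B := Fintype.ofFinite _
  -- the linear map
  let v : B → G → ℂ := fun χ => pRegularPart p ((χ : IrrCharacter G) : G → ℂ)
  let L : (B → ℂ) →ₗ[ℂ] (G → ℂ) := Fintype.linearCombination ℂ v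
  have hrange : Module.finrank ℂ (LinearMap.range L) = blockRank p B := by
    have h1 : LinearMap.range L = Submodule.span ℂ
        ((fun χ : IrrCharacter G => pRegularPart p (χ : G → ℂ)) '' B) := by
      rw [Fintype.range_linearCombination, Set.image_eq_range]
    rw [h1, blockRank]
  have hker : Module.finrank ℂ (LinearMap.ker L) = t := by
    have h1 := LinearMap.finrank_range_add_finrank_ker L
    rw [hrange, Module.finrank_fintype_fun_eq_card, ← Nat.card_eq_fintype_card, hc.card] at h1
    omega
  -- the vectors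
  let X : Fin t → B → ℂ := fun j χ => (x j χ : ℂ)
  have hXG : ∀ i j, ∑ χ : B, X i χ * X j χ = (e : ℂ) + if i = j then 1 else 0 := by
    intro i j
    have h1 := hc.gram i j
    rw [reg_sum B (fun χ => x i χ * x j χ) (fun χ hχ => by simp [hc.supp i χ hχ])] at h1
    have h2 : ((∑ χ : B, x i χ * x j χ : ℤ) : ℂ) = (((e : ℤ) + if i = j then 1 else 0 : ℤ) : ℂ) := by
      rw [h1]
    push_cast at h2
    exact h2
  have hXind : LinearIndependent ℂ X := reg_indep X hXG
  have hLapply : ∀ (d : B → ℂ) (y : G), L d y = ∑ χ : B, d χ * pRegularPart p ((χ : IrrCharacter G) : G → ℂ) y := by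
    intro d y
    simp only [L, v, Fintype.linearCombination_apply, Finset.sum_apply, Pi.smul_apply, smul_eq_mul]
  have hXker : ∀ j, X j ∈ LinearMap.ker L := by
    intro j
    rw [LinearMap.mem_ker]
    funext y
    rw [hLapply]
    simp only [pRegularPart_eq, Pi.zero_apply]
    by_cases hy : IsPRegular p y
    · simp only [if_pos hy]
      have h1 := hc.van j y hy
      rw [reg_sum B (fun χ => (x j χ : ℂ) * (χ : G → ℂ) y) (fun χ hχ => by simp [hc.supp j χ hχ])] at h1
      exact h1
    · simp only [if_neg hy, mul_zero, Finset.sum_const_zero]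
  have hspan : Submodule.span ℂ (Set.range X) = LinearMap.ker L := by
    apply Submodule.eq_of_le_of_finrank_eq
    · rw [Submodule.span_le]
      rintro _ ⟨j, rfl⟩
      exact hXker j
    · rw [finrank_span_eq_card hXind, hker, Fintype.card_fin]
  -- the functional
  let φ : (B → ℂ) →ₗ[ℂ] ℂ :=
    { toFun := fun d => ∑ χ : B, (c χ : ℂ) * d χ
      map_add' := fun d d' => by simp only [Pi.add_apply, mul_add, Finset.sum_add_distrib]
      map_smul' := fun a d => by
        simp only [Pi.smul_apply, smul_eq_mul, RingHom.id_apply, Finset.mul_sum]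
        apply Finset.sum_congr rfl; intro χ _; ring }
  have hφ : LinearMap.ker L ≤ LinearMap.ker φ := by
    rw [← hspan, Submodule.span_le]
    rintro _ ⟨j, rfl⟩
    change φ (X j) = 0
    have h1 := horth j
    rw [reg_sum B (fun χ => c χ * x j χ) (fun χ hχ => by simp [hsupp χ hχ])] at h1
    have h2 : ((∑ χ : B, c χ * x j χ : ℤ) : ℂ) = 0 := by rw [h1]; simp
    push_cast at h2
    exact h2
  -- the column of `g`
  let w : B → ℂ := fun χ => conj (((χ : IrrCharacter G) : G → ℂ) g)
  have hw : w ∈ LinearMap.ker L := by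
    rw [LinearMap.mem_ker]
    funext y
    rw [hLapply]
    simp only [pRegularPart_eq, Pi.zero_apply]
    by_cases hy : IsPRegular p y
    · simp only [if_pos hy]
      have h1 := (bS_regular_singular hM B hB hy hg).1
      rw [bS, ← finsum_set_coe_eq_finsum_mem, finsum_eq_sum_of_fintype] at h1
      rw [← h1]
      apply Finset.sum_congr rfl; intro χ _
      simp only [w]; ring
    · simp only [if_neg hy, mul_zero, Finset.sum_const_zero]
  have h7 : φ w = 0 := hφ hw
  have h8 : ∑ χ : B, (c χ : ℂ) * conj (((χ : IrrCharacter G) : G → ℂ) g) = 0 := h7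
  rw [reg_sum B (fun χ => (c χ : ℂ) * (χ : G → ℂ) g) (fun χ hχ => by simp [hsupp χ hχ])]
  have h9 := congrArg conj h8
  simp only [map_sum, map_mul, Complex.conj_conj, map_zero, map_intCast] at h9
  exact h9

end Cfsg.Agent.Lib.Helper81.CY3
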