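import Cfsg.Agent.Lib.Helper81.CY3.COL
import Cfsg.Agent.Lib.Helper81.CY3.LATU

set_option autoImplicit false
set_option linter.unusedSectionVars false
open Cfsg
open scoped ComplexConjugate
open Cfsg.Agent.Lib.Helper20 Cfsg.Agent.Lib.Helper81

namespace Cfsg.Agent.Lib.Helper81.CY3

variable {G : Type*} [Group G] [Fintype G] {p : ℕ} [Fact p.Prime] {M : Ideal AlgInt}

/-- [UBF] the upper bound `l(B) ≤ e` from the core. -/
theorem ubf (hM : IsPModular p M) {B : Set (IrrCharacter G)} (hB : IsPBlock M B)
    (hd : blockDefect p B ≠ 0) {e t : ℕ} (ht : 1 ≤ t) {x : Fin t → IrrCharacter G → ℤ}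
    (hc : Core p B e t x) : blockRank p B ≤ e := by
  classical
  have : Finite (Cfsg.IrrCharacter G) := finite_irrCharacter
  have : Fintype (Cfsg.IrrCharacter G) := Fintype.ofFinite _
  have h := latu (Finset.univ.filter (· ∈ B)) e t ht x
    (fun i j => by
      rw [← hc.gram i j, finsum_eq_sum_of_fintype, Finset.sum_filter]
      apply Finset.sum_congr rfl; intro χ _
      split_ifs with hχ
      · rfl
      · rw [hc.supp i χ hχ, zero_mul])
    (fun χ hχ => col hM hB hd hc (by simpa using hχ))
  have h2 : Nat.card B = (Finset.univ.filter (· ∈ B)).card := by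
    rw [Nat.card_eq_fintype_card, Fintype.card_subtype]
  have h3 := hc.card
  omega

end Cfsg.Agent.Lib.Helper81.CY3
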